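import Cfsg.Agent.Lib.ModHecke.Chev
import Cfsg.Agent.Lib.Hecke.Link

/-!
The braid relations for the elements `n_i(1)`, from a check on the sign tables, and the triviality of
the kernel of the map from `(Fˣ)^l` to the torus.
-/

set_option autoImplicit false
set_option linter.unusedSectionVars false

namespace Cfsg.Agent.Lib.ModHecke.Braid

open Cfsg Cfsg.Lie Cfsg.Agent.Lib.ChevBN.Elem Cfsg.Agent.Lib.ChevBN.Table
open Cfsg.Agent.Lib.ChevBN.Rel Cfsg.Agent.Lib.ChevBN.Fast
open Cfsg.Agent.Lib.ChevOrder.Chev Cfsg.Agent.Lib.ChevOrder.BNCount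
open Cfsg.Agent.Lib.BNPair.CoxeterExchange
open Cfsg.Agent.Lib.Hecke.Link Cfsg.Agent.Lib.ChevOrder.TorusCard Cfsg.Agent.Lib.ChevBN.Pair

/-- The last letter of an alternating word. -/
def lastL (a b : ℕ) : ℕ → ℕ
  | 0 => a
  | k + 1 => lastL b a k

theorem alt_snoc {ι : Type*} (a b : ι) (k : ℕ) (la : ι) (h : la = (alt a b (k + 1)).getLast (by simp)) :
    alt a b (k + 1) = alt a b k ++ [la] := by
  subst h
  have h1 := List.dropLast_append_getLast (l := alt a b (k + 1)) (by simp)
  rw [alt_concat] at h1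
  exact h1.symm

theorem alt_last (a b k : ℕ) : alt a b (k + 1) = alt a b k ++ [lastL a b k] := by
  induction k generalizing a b with
  | zero => rfl
  | succ k ih =>
    rw [alt_succ, ih, alt_succ]
    rfl

theorem alt_map {ι κ : Type*} (g : ι → κ) (a b : ι) (k : ℕ) :
    (alt a b k).map g = alt (g a) (g b) k := by
  induction k generalizing a b with
  | zero => rfl
  | succ k ih =>
    simp only [alt_succ, List.map_cons, ih]

/-- A step of the sign computation. -/
def stepB (T : FastTab) (D : ChevalleyDatum) (η : ℕ → ℕ → ℤ) (l : ℕ) (p : ℕ × ℤ) : ℕ × ℤ :=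
  (T.W D l p.1, η l p.1 * p.2)

/-- The sign computation along a word. -/
def wordB (T : FastTab) (D : ChevalleyDatum) (η : ℕ → ℕ → ℤ) (u : List ℕ) (p : ℕ × ℤ) : ℕ × ℤ :=
  u.foldr (stepB T D η) p

/-- The check of the braid relation for a pair of generators. -/
def chkBr (T : FastTab) (D : ChevalleyDatum) (η : ℕ → ℕ → ℤ) (k a b : ℕ) : Bool :=
  chk1 T D a b k && decide (wordB T D η (alt a b (k - 1)) (D.simple (lastL a b (k - 1)), 1) = (D.simple b, 1))

/-- The check of all braid relations. -/
def chkBrAll (T : FastTab) (D : ChevalleyDatum) (η : ℕ → ℕ → ℤ) : Bool :=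
  (List.range D.rank).all fun a => (List.range D.rank).all fun b =>
    [1, 2, 3, 4, 6].any fun k => chkBr T D η k a b

variable {D : ChevalleyDatum} {F : Type*} [Field F] {η : ℕ → ℕ → ℤ}
variable (hR : Sys D F η) (hT : Tbl D)
include hR hT

theorem conj_word {T : FastTab} (hW : ∀ i < D.rank, chkW T D i = true) (l : List ℕ)
    (hl : ∀ i ∈ l, i < D.rank) {s : ℕ} (hs : s < D.nroots) (z : ℤ) :
    (wordB T D η l (s, z)).1 < D.nroots ∧ ∀ c : F,
      pr (A hR) l * nG hR.toAddRel s ((z : F) * c) * (pr (A hR) l)⁻¹ =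
        nG hR.toAddRel (wordB T D η l (s, z)).1 (((wordB T D η l (s, z)).2 : F) * c) := by
  have hw : ∀ {i s : ℕ}, i < D.rank → s < D.nroots → D.reflectRoot i s = T.W D i s := by
    intro i s hi hs
    have := List.all_eq_true.mp (hW i hi) s (List.mem_range.mpr hs)
    simpa using this
  induction l with
  | nil =>
    refine ⟨hs, fun c => ?_⟩
    simp [wordB]
  | cons i l ih =>
    obtain ⟨h1, h2⟩ := ih fun j hj => hl j (by simp [hj])
    have hi : i < D.rank := hl i (by simp)
    have e : wordB T D η (i :: l) (s, z) = stepB T D η i (wordB T D η l (s, z)) := rfl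
    rw [e]
    set r := wordB T D η l (s, z) with hr
    refine ⟨?_, fun c => ?_⟩
    · show T.W D i r.1 < D.nroots
      rw [← hw hi h1]
      exact hT.w_lt i hi _ h1
    · show pr (A hR) (i :: l) * _ * _ = nG hR.toAddRel (T.W D i r.1) (((η i r.1 * r.2 : ℤ) : F) * c)
      rw [pr_cons, mul_inv_rev]
      have e2 : A hR i * pr (A hR) l * nG hR.toAddRel s ((z : F) * c) * ((pr (A hR) l)⁻¹ * (A hR i)⁻¹) =
          A hR i * (pr (A hR) l * nG hR.toAddRel s ((z : F) * c) * (pr (A hR) l)⁻¹) * (A hR i)⁻¹ := by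
        group
      rw [e2, h2 c, A_conj_nG hR hT hi h1, ← hw hi h1]
      congr 1
      push_cast
      ring

theorem braid_of_chk {T : FastTab} (hW : ∀ i < D.rank, chkW T D i = true)
    (h : chkBrAll T D η = true) (a b : Fin D.rank) :
    pr (ee hR hT) (alt a b (orderOf (fW hR hT a * fW hR hT b))) =
      pr (ee hR hT) (alt b a (orderOf (fW hR hT a * fW hR hT b))) := by
  have h1 := List.all_eq_true.mp (List.all_eq_true.mp h a (List.mem_range.mpr a.2)) b
    (List.mem_range.mpr b.2)
  obtain ⟨k, -, hk⟩ := List.any_eq_true.mp h1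
  simp only [chkBr, Bool.and_eq_true, decide_eq_true_eq] at hk
  obtain ⟨hk1, hk2⟩ := hk
  rw [orderOf_fW, orderOf_of_chk hT hW a.2 b.2 hk1]
  have hk0 : 0 < k := by
    simp only [chk1, Bool.and_eq_true] at hk1
    exact Nat.le_of_ble_eq_true hk1.1.1
  obtain ⟨k', rfl⟩ : ∃ k', k = k' + 1 := ⟨k - 1, by omega⟩
  simp only [Nat.add_sub_cancel] at hk2
  have hcoe : ∀ l : List (Fin D.rank), ((pr (ee hR hT) l : ↥(D.group F)) : GL D.Idx F) =
      pr (A hR) (l.map Fin.val) := by
    intro l
    induction l with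
    | nil => rfl
    | cons i l ih =>
      rw [pr_cons, Subgroup.coe_mul, ih, List.map_cons, pr_cons]
      rfl
  apply Subtype.ext
  rw [hcoe, hcoe, alt_map, alt_map, alt_last, alt_succ, pr_append, pr_cons, pr_cons, pr_nil, mul_one]
  set u := pr (A hR) (alt (a : ℕ) (b : ℕ) k') with hu
  set c := lastL (a : ℕ) (b : ℕ) k' with hc
  have hlen : ∀ j ∈ alt (a : ℕ) (b : ℕ) k', j < D.rank := by
    intro j hj
    have : ∀ (a b : Fin D.rank) (k : ℕ), ∀ j ∈ alt (a : ℕ) (b : ℕ) k, j < D.rank := by
      intro a b k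
      induction k generalizing a b with
      | zero => simp
      | succ k ih =>
        intro j hj
        rw [alt_succ, List.mem_cons] at hj
        rcases hj with rfl | hj
        · exact a.2
        · exact ih b a j hj
    exact this a b k' j hj
  have hclt : c < D.rank := by
    have : ∀ (a b : Fin D.rank) (k : ℕ), lastL (a : ℕ) (b : ℕ) k < D.rank := by
      intro a b k
      induction k generalizing a b with
      | zero => exact a.2
      | succ k ih => exact ih b a
    exact this a b k'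
  have h3 := (conj_word hR hT hW _ hlen (hT.simple_lt hclt) 1).2 1
  rw [hk2] at h3
  have h4 : u * A hR c * u⁻¹ = A hR b := by
    have e := h3
    simp only [Int.cast_one, mul_one] at e
    exact e
  rw [← h4]
  group

/-- The Cartan matrix has an inverse up to the integer `d`. -/
def InvUpTo (D : ChevalleyDatum) (d : ℕ) : Prop :=
  ∃ M : ℕ → ℕ → ℤ, ∀ a < D.rank, ∀ j < D.rank,
    (∑ k ∈ Finset.range D.rank, M a k * D.cartan j (D.simple k)) = if a = j then (d : ℤ) else 0

omit hR hT in
theorem ker_bot [Fintype F] {d : ℕ} (hd : InvUpTo D d) (hcop : d.Coprime (Fintype.card F - 1)) :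
    (actM (μ := Fˣ) (cartM D)).ker = ⊥ := by
  classical
  obtain ⟨M, hM⟩ := hd
  rw [eq_bot_iff]
  intro c hc
  rw [Subgroup.mem_bot]
  have hc' : actM (μ := Fˣ) (cartM D) c = 1 := hc
  let N : Matrix (Fin D.rank) (Fin D.rank) ℤ := Matrix.of fun a k => M a k
  have h1 : N * cartM D = Matrix.diagonal fun _ => (d : ℤ) := by
    ext a j
    rw [Matrix.mul_apply, Matrix.diagonal_apply]
    have h2 := hM a a.2 j j.2
    rw [Finset.sum_range] at h2
    simp only [N, cartM, Matrix.of_apply]
    rw [h2]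
    by_cases h3 : a = j
    · simp [h3]
    · have h4 : (a : ℕ) ≠ j := fun h => h3 (Fin.ext h)
      simp [h3, h4]
  have h5 := actM_mul N (cartM D) c
  rw [h1, hc', map_one] at h5
  funext i
  have h6 := congrFun h5 i
  rw [actM_diagonal] at h6
  have h7 : orderOf (c i) ∣ d := orderOf_dvd_of_pow_eq_one h6
  have h8 : orderOf (c i) ∣ Fintype.card F - 1 := by
    have := orderOf_dvd_card (x := c i)
    rwa [Fintype.card_units] at this
  have h9 := Nat.Coprime.eq_one_of_dvd (Nat.Coprime.coprime_dvd_left h7 hcop) h8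
  exact orderOf_eq_one_iff.1 h9

/-- Integer tables. -/
def tblI (L : List (List ℤ)) (a k : ℕ) : ℤ := (L.getD a []).getD k 0

omit hR hT in
/-- **Steinberg**: the number of `p`-regular classes, from the checks on the tables. -/
theorem card_of_checks [Fintype F] (p : ℕ) [Fact p.Prime] [CharP F p] {T : FastTab} (hR : Sys D F η) (hT : Tbl D)
    (hc : ∀ i < D.rank, D.cartan i (D.simple i) = 2) (hη : ∀ i < D.rank, η i (D.simple i) = -1)
    (hW : ∀ i < D.rank, chkW T D i = true) (hbr : chkBrAll T D η = true) {d : ℕ} (hd : InvUpTo D d)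
    (hcop : d.Coprime (Fintype.card F - 1)) :
    Nat.card (Cfsg.Agent.Lib.ModHecke.Brauer.RegCl ↥(D.group F) p) = Fintype.card F ^ D.rank :=
  Cfsg.Agent.Lib.ModHecke.Chev.card_regCl hR hT hc hη p (ker_bot hd hcop) (braid_of_chk hR hT hW hbr)

end Cfsg.Agent.Lib.ModHecke.Braid
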