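import Cfsg.Agent.Lib.ModHecke.Chars
import Cfsg.Agent.Lib.ChevBN.SylowU
import Cfsg.Agent.Lib.ChevOrder.TorusCard
import Cfsg.Agent.Lib.Chevalley.SL2Root

/-!
The Chevalley groups as split `(B,N)`-pairs, and the number of their `p`-regular classes.
-/

set_option autoImplicit false
set_option linter.unusedSectionVars false

namespace Cfsg.Agent.Lib.ModHecke.Chev

open Cfsg Cfsg.Lie Cfsg.Agent.Lib.ChevBN.Elem Cfsg.Agent.Lib.ChevBN.Entries Cfsg.Agent.Lib.ChevBN.Table
open Cfsg.Agent.Lib.ChevBN.Collect Cfsg.Agent.Lib.ChevBN.Rel Cfsg.Agent.Lib.ChevBN.Torus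
open Cfsg.Agent.Lib.ChevBN.Monomial Cfsg.Agent.Lib.ChevBN.Core Cfsg.Agent.Lib.ChevBN.Pair
open Cfsg.Agent.Lib.ChevOrder.Chev Cfsg.Agent.Lib.ChevOrder.BNCount
open Cfsg.Agent.Lib.BNPair.CoxeterExchange Cfsg.Agent.Lib.BNPair.Basic
open Cfsg.Agent.Lib.ModHecke.Core Cfsg.Agent.Lib.ModHecke.Chars
open Cfsg.Agent.Lib.ChevBN.SylowU Cfsg.Agent.Lib.ChevOrder.TorusCard

variable {D : ChevalleyDatum} {F : Type*} [Field F] {η : ℕ → ℕ → ℤ}
variable (hR : Sys D F η) (hT : Tbl D)
include hR hT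

/-! ### Elementary relations -/

theorem nG_mem_G {r : ℕ} (hr : r < D.nroots) (a : F) : nG hR.toAddRel r a ∈ D.group F :=
  Subgroup.mul_mem _ (Subgroup.mul_mem _ (X_mem_G hR hT hr a) (X_mem_G hR hT (hT.neg_lt hr) _))
    (X_mem_G hR hT hr a)

theorem hG_mem_G {r : ℕ} (hr : r < D.nroots) (a : F) : hG hR.toAddRel r a ∈ D.group F :=
  Subgroup.mul_mem _ (nG_mem_G hR hT hr a) (nG_mem_G hR hT hr _)

/-- Root elements of the simple roots in the group. -/
noncomputable def xG (i : Fin D.rank) (a : F) : ↥(D.group F) :=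
  ⟨X hR.toAddRel (D.simple i) a, X_mem_G hR hT (hT.simple_lt i.2) a⟩

/-- The elements `h_i(a)` in the group. -/
noncomputable def hhG (i : Fin D.rank) (a : F) : ↥(D.group F) :=
  ⟨hG hR.toAddRel (D.simple i) a, hG_mem_G hR hT (hT.simple_lt i.2) a⟩

/-- The Weyl group commutes with the negation of roots. -/
theorem σW_neg (w : WW (pair hR hT)) (s : Fin D.nroots) :
    ((σW hR hT w (⟨D.neg s, hT.neg_lt s.2⟩ : Fin D.nroots) : Fin D.nroots) : ℕ) =
      D.neg (σW hR hT w s : Fin D.nroots) := by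
  obtain ⟨l, rfl, -⟩ := (setupW hR hT).ex w
  induction l generalizing s with
  | nil =>
    simp
  | cons i l ih =>
    rw [pr_cons, map_mul, Equiv.Perm.mul_apply, Equiv.Perm.mul_apply, σW_fW, Tbl.wPerm_val, Tbl.wPerm_val,
      ih, hT.w_neg i i.2 _ (Fin.isLt _)]

/-- Ascents send the simple root to a positive root. -/
theorem pos_of_asc (i : Fin D.rank) (w : WW (pair hR hT))
    (h : LL (pair hR hT) w < LL (pair hR hT) (fW hR hT i * w)) :
    ((σW hR hT w)⁻¹) (alphaR hT i) ∈ PosR D := by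
  have hs := setupW hR hT
  have h1 := hK hR hT i (fW hR hT i * w) (by rw [hs.cancel_left]; exact h)
  rw [map_mul, σW_fW, mul_inv_rev, Equiv.Perm.mul_apply] at h1
  have h2 : ((Tbl.wPerm hT i.2)⁻¹) (alphaR hT i) =
      (⟨D.neg ((alphaR hT i : Fin D.nroots) : ℕ), hT.neg_lt (alphaR hT i).2⟩ : Fin D.nroots) := by
    apply Fin.ext
    show D.reflectRoot i (D.simple i) = D.neg (D.simple i)
    exact hT.w_simple i i.2
  rw [h2] at h1
  -- the inverse of `σ w` commutes with the negation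
  set r := (σW hR hT w)⁻¹ (alphaR hT i) with hr
  have h3 : (σW hR hT w)⁻¹ (⟨D.neg ((alphaR hT i : Fin D.nroots) : ℕ), hT.neg_lt (alphaR hT i).2⟩ : Fin D.nroots) =
      ⟨D.neg r, hT.neg_lt r.2⟩ := by
    rw [Equiv.Perm.inv_eq_iff_eq]
    apply Fin.ext
    have h4 := σW_neg hR hT w r
    rw [h4, hr]
    simp
  rw [h3] at h1
  by_contra hne
  have h5 : D.IsNegRoot (r : ℕ) := (hT.pos_or_neg r.2).resolve_left hne
  exact h1 (hT.pos_of_neg h5)

/-- `A_i x_i(a) A_i = x_i(-a⁻¹) A_i h_i(-a) x_i(-a⁻¹)`. -/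
theorem rank_one (hc : ∀ i < D.rank, D.cartan i (D.simple i) = 2)
    (hη : ∀ i < D.rank, η i (D.simple i) = -1) {i : ℕ} (hi : i < D.rank) {a : F} (ha : a ≠ 0) :
    A hR i * X hR.toAddRel (D.simple i) a * A hR i =
      X hR.toAddRel (D.simple i) (-a⁻¹) * A hR i * hG hR.toAddRel (D.simple i) (-a) *
        X hR.toAddRel (D.simple i) (-a⁻¹) := by
  have hp := hT.simple_lt hi
  have h1 := A_conj_X hR hi hp a
  rw [hT.w_simple i hi, hη i hi] at h1
  have h2 : X hR.toAddRel (D.neg (D.simple i)) (-a) =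
      X hR.toAddRel (D.simple i) (-a⁻¹) * nG hR.toAddRel (D.simple i) a⁻¹ *
        X hR.toAddRel (D.simple i) (-a⁻¹) := by
    rw [nG, inv_inv]
    have e1 : X hR.toAddRel (D.simple i) (-a⁻¹) * X hR.toAddRel (D.simple i) a⁻¹ = 1 := by
      rw [X_mul, neg_add_cancel, X_zero]
    have e2 : X hR.toAddRel (D.simple i) a⁻¹ * X hR.toAddRel (D.simple i) (-a⁻¹) = 1 := by
      rw [X_mul, add_neg_cancel, X_zero]
    calc X hR.toAddRel (D.neg (D.simple i)) (-a)
        = (X hR.toAddRel (D.simple i) (-a⁻¹) * X hR.toAddRel (D.simple i) a⁻¹) *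
          X hR.toAddRel (D.neg (D.simple i)) (-a) *
          (X hR.toAddRel (D.simple i) a⁻¹ * X hR.toAddRel (D.simple i) (-a⁻¹)) := by
            rw [e1, e2, one_mul, mul_one]
      _ = _ := by group
  have h3 : ((-1 : ℤ) : F) * a = -a := by
    push_cast
    ring
  rw [h3] at h1
  have h4 : nG hR.toAddRel (D.simple i) a⁻¹ = hG hR.toAddRel (D.simple i) a⁻¹ * A hR i :=
    nG_eq_hG_mul _ _ _
  -- `A` and `h`
  have h5 : hG hR.toAddRel (D.simple i) a⁻¹ * A hR i = A hR i * hG hR.toAddRel (D.simple i) a := by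
    have h6 := A_conj_dg hR hT hi (coe_hG_simple hR hi ha)
    have h7 : A hR i * hG hR.toAddRel (D.simple i) a * (A hR i)⁻¹ = hG hR.toAddRel (D.simple i) a⁻¹ := by
      apply Units.ext
      rw [h6, coe_hG_simple hR hi (inv_ne_zero ha)]
      congr 1
      funext s
      simp only [Function.comp, Tbl.wPerm_val]
      rw [hT.cartan_w i hi i hi s s.isLt, hc i hi, zpow_sub₀ ha, inv_zpow]
      have e : a ^ (D.cartan i s * 2) = a ^ (D.cartan i s) * a ^ (D.cartan i s) := by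
        rw [mul_two, zpow_add₀ ha]
      rw [e]
      have e2 : a ^ D.cartan i s ≠ 0 := zpow_ne_zero _ ha
      field_simp
    rw [← h7]
    group
  -- the square of `A`
  have h8 : A hR i * A hR i = hG hR.toAddRel (D.simple i) (-1) := by
    have h9 : hG hR.toAddRel (D.simple i) (-1 : F) * hG hR.toAddRel (D.simple i) (-1) =
        hG hR.toAddRel (D.simple i) 1 :=
      by rw [Cfsg.Agent.Lib.Chevalley.SL2Root.hG_mul hR hT hp (by simp) (by simp)]; simp
    have h10 : hG hR.toAddRel (D.simple i) (1 : F) = 1 := by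
      rw [hG, nG_neg_one]
      simp
    have h11 : (hG hR.toAddRel (D.simple i) (-1 : F))⁻¹ = A hR i * A hR i := by
      rw [hG, nG_neg_one, A, mul_inv_rev, inv_inv]
    rw [← h11, inv_eq_iff_mul_eq_one, h9, h10]
  -- commuting `h(-1)` and `x`
  have h12 : hG hR.toAddRel (D.simple i) (-1 : F) * X hR.toAddRel (D.simple i) (-a⁻¹) =
      X hR.toAddRel (D.simple i) (-a⁻¹) * hG hR.toAddRel (D.simple i) (-1 : F) := by
    have h13 := Cfsg.Agent.Lib.Chevalley.SL2Root.hG_conj_self hR hT hc hp (s := (-1 : F)) (by simp) (-a⁻¹)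
    rw [show (-1 : F) * -1 * -a⁻¹ = -a⁻¹ by ring] at h13
    calc hG hR.toAddRel (D.simple i) (-1 : F) * X hR.toAddRel (D.simple i) (-a⁻¹)
        = (hG hR.toAddRel (D.simple i) (-1 : F) * X hR.toAddRel (D.simple i) (-a⁻¹) *
            (hG hR.toAddRel (D.simple i) (-1 : F))⁻¹) * hG hR.toAddRel (D.simple i) (-1 : F) := by group
      _ = _ := by rw [h13]
  have h14 : hG hR.toAddRel (D.simple i) a * hG hR.toAddRel (D.simple i) (-1 : F) =
      hG hR.toAddRel (D.simple i) (-a) := by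
    rw [Cfsg.Agent.Lib.Chevalley.SL2Root.hG_mul hR hT hp ha (by simp)]
    simp
  have h15 : A hR i * X hR.toAddRel (D.simple i) a * A hR i =
      X hR.toAddRel (D.neg (D.simple i)) (-a) * (A hR i * A hR i) := by
    rw [← h1]
    group
  rw [h15, h2, h4, h5, h8, mul_assoc _ _ (hG hR.toAddRel (D.simple i) (-1 : F)), ← h12, ← h14]
  group

/-! ### The split `(B,N)`-pair -/

omit hR hT in
theorem mem_U_iff {g : ↥(D.group F)} :
    g ∈ (D.posUnipotent F).subgroupOf (D.group F) ↔ (g : GL D.Idx F) ∈ D.posUnipotent F :=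
  Subgroup.mem_subgroupOf

variable (hc : ∀ i < D.rank, D.cartan i (D.simple i) = 2) (hη : ∀ i < D.rank, η i (D.simple i) = -1)
variable [Fintype F] (p : ℕ) [Fact p.Prime] [CharP F p]

/-- The torus in the group. -/
noncomputable def torusEquiv : ↥(D.diagonalSubgroup F) ≃* ↥((pair hR hT).B ⊓ (pair hR hT).N) where
  toFun h := ⟨⟨h, H_le_G hR hT h.2⟩, (mem_PB hR hT).2 (H_le_B hR hT h.2), (mem_PN hR hT).2 (H_le_N hR h.2)⟩
  invFun t := ⟨((t : ↥(D.group F)) : GL D.Idx F), by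
    rw [← B_inf_N hR hT]
    exact ⟨(mem_PB hR hT).1 t.2.1, (mem_PN hR hT).1 t.2.2⟩⟩
  left_inv _ := rfl
  right_inv _ := rfl
  map_mul' _ _ := rfl

theorem mem_torus_iff {g : ↥(D.group F)} :
    g ∈ (pair hR hT).B ⊓ (pair hR hT).N ↔ (g : GL D.Idx F) ∈ D.diagonalSubgroup F := by
  rw [← B_inf_N hR hT]
  exact ⟨fun h => ⟨(mem_PB hR hT).1 h.1, (mem_PN hR hT).1 h.2⟩,
    fun h => ⟨(mem_PB hR hT).2 h.1, (mem_PN hR hT).2 h.2⟩⟩

include hc hη in
/-- The split `(B,N)`-pair of a Chevalley group. -/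
noncomputable def spl : Spl (pair hR hT) p F (Fin D.rank) where
  U := (D.posUnipotent F).subgroupOf (D.group F)
  e := ee hR hT
  x := xG hR hT
  hh := hhG hR hT
  he := ee_mem hR hT
  hes := ee_surj hR hT
  hp := Fact.out
  hU := isPGroup_U hR hT p
  U_le := fun u hu => (mem_PB hR hT).2 (U_le_B hR hT ((mem_U_iff).1 hu))
  U_norm := by
    intro b hb u hu
    obtain ⟨u₀, hu₀, h, hh, he⟩ := (mem_B_iff hR hT).1 ((mem_PB hR hT).1 hb)
    apply (mem_U_iff).2
    have e : ((b * u * b⁻¹ : ↥(D.group F)) : GL D.Idx F) =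
        u₀ * (h * (u : GL D.Idx F) * h⁻¹) * u₀⁻¹ := by
      simp only [Subgroup.coe_mul, Subgroup.coe_inv, he]
      group
    rw [e]
    exact Subgroup.mul_mem _ (Subgroup.mul_mem _ hu₀ (H_norm_U hR hT hh ((mem_U_iff).1 hu)))
      (Subgroup.inv_mem _ hu₀)
  B_dec := by
    intro b hb
    obtain ⟨u₀, hu₀, h, hh, he⟩ := (mem_B_iff hR hT).1 ((mem_PB hR hT).1 hb)
    refine ⟨⟨u₀, U_le_G hR hT hu₀⟩, (mem_U_iff).2 hu₀, ⟨h, H_le_G hR hT hh⟩,
      ⟨(mem_PB hR hT).2 (H_le_B hR hT hh), (mem_PN hR hT).2 (H_le_N hR hh)⟩, Subtype.ext he⟩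
  T_cop := by
    rw [← Nat.card_congr (torusEquiv hR hT).toEquiv]
    exact ((Nat.Prime.coprime_iff_not_dvd Fact.out).2 (not_dvd_card_H hR hT p)).symm
  T_comm := by
    intro t ht t' ht'
    obtain ⟨κ, -, h1, -⟩ := exists_of_mem_H hR hT ((mem_torus_iff hR hT).1 ht)
    obtain ⟨κ', -, h2, -⟩ := exists_of_mem_H hR hT ((mem_torus_iff hR hT).1 ht')
    apply Subtype.ext
    apply Units.ext
    simp only [Subgroup.coe_mul, Units.val_mul]
    rw [h1, h2, dgMat_mul, dgMat_mul, mul_comm]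
  x_add := fun i a b => Subtype.ext (X_mul hR.toAddRel _ a b).symm
  x_mem := fun i a => (mem_U_iff).2 (X_mem_U hR hT (hT.simple_pos i i.2) a)
  x_dec := by
    intro i u hu
    obtain ⟨a, ha, t, hat⟩ := U_decomp hR hT i.2 (Subgroup.inv_mem _ ((mem_U_iff).1 hu))
    have hua : ((u : ↥(D.group F)) : GL D.Idx F) = X hR.toAddRel (D.simple i) (-t) * a⁻¹ := by
      have : ((u : ↥(D.group F)) : GL D.Idx F) = (((u : ↥(D.group F)) : GL D.Idx F)⁻¹)⁻¹ := by group
      rw [this, hat, mul_inv_rev, X_inv]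
    have hainv : a⁻¹ ∈ D.posUnipotent F := Yp_le_U hR hT _ (Subgroup.inv_mem _ ha)
    refine ⟨-t, ⟨a⁻¹, U_le_G hR hT hainv⟩, (mem_U_iff).2 hainv, Subtype.ext hua, (mem_U_iff).2 ?_⟩
    exact Yp_le_U hR hT _ (A_inv_norm_Yp hR hT i.2 (Subgroup.inv_mem _ ha))
  x_asc := by
    intro i n hn hlt a
    set w : WW (pair hR hT) := QuotientGroup.mk ⟨n, hn⟩ with hw
    have h1 : LL (pair hR hT) w < LL (pair hR hT) (fW hR hT i * w) := by
      have e : fW hR hT i * w = QuotientGroup.mk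
          (⟨ee hR hT i * n, (pair hR hT).N.mul_mem ((pair hR hT).subset (ee_mem hR hT i)) hn⟩ :
            ↥(pair hR hT).N) := rfl
      rw [e, hw, LL_mk, LL_mk]
      exact hlt
    have hpos := pos_of_asc hR hT i w h1
    have hnN := (mem_PN hR hT).1 hn
    have hninv : (n : GL D.Idx F)⁻¹ ∈ D.monomialSubgroup F := Subgroup.inv_mem _ hnN
    have hm := mem_mono_of_N hR hT hninv
    obtain ⟨κ, -, h2⟩ := conj_of_mem_N hR hT hninv hm (alphaR hT i)
    have h3 := h2 a
    rw [inv_inv] at h3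
    have h4 : (permOf ⟨(n : GL D.Idx F)⁻¹, hm⟩) (alphaR hT i) = ((σW hR hT w)⁻¹) (alphaR hT i) := by
      rw [hw, σW_mk, ← permOf_inv]
      rfl
    rw [h4] at h3
    apply (mem_U_iff).2
    have h5 : ((n⁻¹ * xG hR hT i a * n : ↥(D.group F)) : GL D.Idx F) =
        (n : GL D.Idx F)⁻¹ * X hR.toAddRel ((alphaR hT i : Fin D.nroots) : ℕ) a * (n : GL D.Idx F) := rfl
    rw [h5, h3]
    exact X_mem_U hR hT hpos _
  rank1 := by
    intro i a ha
    exact ⟨-a⁻¹, -a⁻¹, Subtype.ext (rank_one hR hT hc hη i.2 ha)⟩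
  h_mem := by
    intro i a ha
    exact (mem_torus_iff hR hT).2 (hG_mem_diagonal hR (hT.simple_lt i.2) ha)
  card_F := p_dvd_card hR hT p

/-! ### The torus -/

/-- The map from `(Fˣ)^l` onto the torus. -/
noncomputable def thetaT : (Fin D.rank → Fˣ) →* ↥((pair hR hT).B ⊓ (pair hR hT).N) :=
  (torusEquiv hR hT).toMonoidHom.comp (tmap hT hR)

theorem thetaT_surj : Function.Surjective (thetaT hR hT) :=
  (torusEquiv hR hT).surjective.comp (tmap_surj hT hR)

theorem thetaT_inj (h : (actM (μ := Fˣ) (cartM D)).ker = ⊥) : Function.Injective (thetaT hR hT) := by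
  refine (torusEquiv hR hT).injective.comp ?_
  rw [injective_iff_map_eq_one]
  intro c hc
  have h1 : c ∈ (actM (μ := Fˣ) (cartM D)).ker := (mem_ker_tmap hT hR c).1 hc
  rw [h] at h1
  exact h1

/-- The parameters of the elements of the torus. -/
noncomputable def tauT (h : (actM (μ := Fˣ) (cartM D)).ker = ⊥) :
    ↥((pair hR hT).B ⊓ (pair hR hT).N) ≃* (Fin D.rank → Fˣ) :=
  (MulEquiv.ofBijective (thetaT hR hT) ⟨thetaT_inj hR hT h, thetaT_surj hR hT⟩).symm

theorem hP_single (i : Fin D.rank) (a : Fˣ) :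
    hP hR (ext (Pi.mulSingle i a)) = hG hR.toAddRel (D.simple i) (a : F) := by
  apply Units.ext
  rw [coe_hP hR (fun j _ => ext_ne _ j), coe_hG_simple hR i.2 a.ne_zero]
  congr 1
  funext s
  rw [Cfsg.Agent.Lib.ChevOrder.TorusCard.chi_ext, Finset.prod_eq_single i]
  · rw [Pi.mulSingle_eq_same, Units.val_zpow_eq_zpow_val]
  · intro j _ hj
    rw [Pi.mulSingle_eq_of_ne hj]
    simp
  · simp

theorem thetaT_single (i : Fin D.rank) (a : Fˣ) :
    thetaT hR hT (Pi.mulSingle i a) = ⟨hhG hR hT i (a : F),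
      (mem_torus_iff hR hT).2 (hG_mem_diagonal hR (hT.simple_lt i.2) a.ne_zero)⟩ := by
  apply Subtype.ext
  apply Subtype.ext
  exact hP_single hR hT i a

/-- The action of the `n_i` on the torus. -/
theorem refl_T (i : Fin D.rank) {t : GL D.Idx F} (ht : t ∈ D.diagonalSubgroup F) :
    ∃ a : Fˣ, A hR i * t * (A hR i)⁻¹ = t * hG hR.toAddRel (D.simple i) (a : F) := by
  rw [diagonal_eq hR hT] at ht
  obtain ⟨c, hc, rfl⟩ := ht
  have hχ := chi_ne_zero hc (D.simple i)
  refine ⟨(Units.mk0 _ hχ)⁻¹, ?_⟩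
  apply Units.ext
  rw [A_conj_dg hR hT i.2 (coe_hP hR hc), Units.val_mul,
    coe_hP hR hc, coe_hG_simple hR i.2 (Units.ne_zero _), dgMat_mul]
  congr 1
  funext s
  simp only [Function.comp, Tbl.wPerm_val, Pi.mul_apply, Units.val_inv_eq_inv_val, Units.val_mk0]
  rw [chi_eq, chi_eq, chi_eq]
  have h1 : ∀ j ∈ Finset.range D.rank, c j ^ D.cartan j (D.reflectRoot i s) =
      c j ^ D.cartan j s * (c j ^ D.cartan j (D.simple i)) ^ (- D.cartan i s) := by
    intro j hj
    have hj' := Finset.mem_range.1 hj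
    rw [hT.cartan_w j hj' i i.2 s s.isLt, ← zpow_mul, ← zpow_add₀ (hc j hj')]
    congr 1
    ring
  rw [Finset.prod_congr rfl h1, Finset.prod_mul_distrib, inv_zpow, ← zpow_neg, Finset.prod_zpow]

/-- The extra structure for the Chevalley group. -/
noncomputable def tor (hker : (actM (μ := Fˣ) (cartM D)).ker = ⊥)
    (hbr : ∀ a b : Fin D.rank, pr (ee hR hT) (alt a b (orderOf (fW hR hT a * fW hR hT b))) =
      pr (ee hR hT) (alt b a (orderOf (fW hR hT a * fW hR hT b)))) :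
    Tor (spl hR hT hc hη p) where
  tau := tauT hR hT hker
  tau_h := by
    intro i a
    show (MulEquiv.ofBijective (thetaT hR hT) ⟨thetaT_inj hR hT hker, thetaT_surj hR hT⟩).symm _ = _
    rw [MulEquiv.symm_apply_eq]
    exact (thetaT_single hR hT i a).symm
  braid := hbr
  refl := by
    intro i t ht
    obtain ⟨a, ha⟩ := refl_T hR hT i ((mem_torus_iff hR hT).1 ht)
    exact ⟨a, Subtype.ext ha⟩
  f_inj := by
    intro i j hij
    by_contra hne
    have h1 := congrArg (σW hR hT) hij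
    have h2 : Tbl.wPerm hT i.2 = Tbl.wPerm hT j.2 := by
      rw [← σW_fW hR hT, ← σW_fW hR hT]
      exact h1
    have h3 := congrArg (fun π : Equiv.Perm (Fin D.nroots) => (π (alphaR hT i) : ℕ)) h2
    simp only [Tbl.wPerm_val] at h3
    have h4 : D.reflectRoot i (D.simple i) = D.neg (D.simple i) := hT.w_simple i i.2
    have h5 : D.IsPosRoot (D.reflectRoot j (D.simple i)) :=
      hT.w_pos j j.2 _ (hT.simple_pos i i.2) fun h => hne (Fin.ext (hT.simple_inj i i.2 j j.2 h))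
    have h6 : D.reflectRoot i ((alphaR hT i : Fin D.nroots) : ℕ) =
        D.reflectRoot j ((alphaR hT i : Fin D.nroots) : ℕ) := h3
    have h7 : D.reflectRoot i (D.simple i) = D.reflectRoot j (D.simple i) := h6
    rw [h4] at h7
    rw [← h7] at h5
    exact hT.not_pos_of_neg (hT.neg_of_pos (hT.simple_pos i i.2)) h5

include hc hη in
/-- **Steinberg**: the number of `p`-regular classes of a Chevalley group whose torus is `(Fˣ)^l`. -/
theorem card_regCl (hker : (actM (μ := Fˣ) (cartM D)).ker = ⊥)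
    (hbr : ∀ a b : Fin D.rank, pr (ee hR hT) (alt a b (orderOf (fW hR hT a * fW hR hT b))) =
      pr (ee hR hT) (alt b a (orderOf (fW hR hT a * fW hR hT b)))) :
    Nat.card (Cfsg.Agent.Lib.ModHecke.Brauer.RegCl ↥(D.group F) p) = Fintype.card F ^ D.rank := by
  have : Finite ↥(D.group F) := inferInstance
  have : Fintype ↥(D.group F) := Fintype.ofFinite _
  have := card_regCl_eq (spl hR hT hc hη p) (tor hR hT hc hη p hker hbr)
  rwa [Fintype.card_fin] at this

end Cfsg.Agent.Lib.ModHecke.Chev
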